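import Mathlib
import Cfsg.Agent.S0130

set_option autoImplicit false

namespace Cfsg.Agent.Lib.Helper38

open scoped commutatorElement

/-- Mirror of `pow_mul_of_central`: if `a * b = d * b * a` with `d` commuting with `b`, then
`a * b ^ n = d ^ n * b ^ n * a`. -/
theorem mul_pow_of_central_left {G : Type*} [Group G] (a b d : G) (hdb : d * b = b * d)
    (h : a * b = d * b * a) (n : ℕ) : a * b ^ n = d ^ n * b ^ n * a := by
  induction n with
  | zero => simp
  | succ n ih =>
    have hc : b ^ n * d = d * b ^ n := ((Commute.pow_right (show Commute d b from hdb) n).eq).symm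
    calc a * b ^ (n + 1) = (a * b ^ n) * b := by rw [pow_succ]; group
      _ = d ^ n * b ^ n * a * b := by rw [ih]
      _ = d ^ n * b ^ n * (a * b) := by group
      _ = d ^ n * b ^ n * (d * b * a) := by rw [h]
      _ = d ^ n * (b ^ n * d) * b * a := by group
      _ = d ^ n * (d * b ^ n) * b * a := by rw [hc]
      _ = d ^ (n + 1) * b ^ (n + 1) * a := by rw [pow_succ, pow_succ]; group

/-- Hall's collection formula in class three. With `u = [y, x]`, `v = [u, x]`, `w = [y, u]`, and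
`v`, `w` commuting with `x` and `y`:
`y ^ n * x = w ^ (n choose 2) * u ^ n * x * y ^ n`. -/
theorem collect_pow_mul {G : Type*} [Group G] (x y : G)
    (hwx : ⁅y, ⁅y, x⁆⁆ * x = x * ⁅y, ⁅y, x⁆⁆) (hwy : ⁅y, ⁅y, x⁆⁆ * y = y * ⁅y, ⁅y, x⁆⁆) (n : ℕ) :
    y ^ n * x = ⁅y, ⁅y, x⁆⁆ ^ (n.choose 2) * ⁅y, x⁆ ^ n * x * y ^ n := by
  obtain ⟨u, hu⟩ : ∃ u : G, u = ⁅y, x⁆ := ⟨_, rfl⟩
  obtain ⟨w, hw⟩ : ∃ w : G, w = ⁅y, u⁆ := ⟨_, rfl⟩
  rw [← hu, ← hw]
  rw [← hu, ← hw] at hwx hwy
  have hwu : w * u = u * w := by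
    have h1 : Commute w u := by
      rw [hu, commutatorElement_def]
      exact (((show Commute w y from hwy).mul_right (show Commute w x from hwx)).mul_right
        (show Commute w y from hwy).inv_right).mul_right (show Commute w x from hwx).inv_right
    exact h1.eq
  have hR1 : y * x = u * x * y := by
    rw [hu, commutatorElement_def]
    group
  have hR3 : y * u = w * u * y := by
    rw [hw, commutatorElement_def]
    group
  have hL2 : ∀ m : ℕ, y * u ^ m = w ^ m * u ^ m * y :=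
    mul_pow_of_central_left y u w hwu hR3
  induction n with
  | zero => simp
  | succ n ih =>
    have hyw : y * w ^ (n.choose 2) = w ^ (n.choose 2) * y :=
      ((Commute.pow_left (show Commute w y from hwy) (n.choose 2)).eq).symm
    have hc : (n + 1).choose 2 = n.choose 2 + n := by
      rw [Nat.choose_succ_succ' n 1, Nat.choose_one_right, add_comm]
    calc y ^ (n + 1) * x = y * (y ^ n * x) := by rw [pow_succ']; group
      _ = y * (w ^ (n.choose 2) * u ^ n * x * y ^ n) := by rw [ih]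
      _ = (y * w ^ (n.choose 2)) * u ^ n * x * y ^ n := by group
      _ = (w ^ (n.choose 2) * y) * u ^ n * x * y ^ n := by rw [hyw]
      _ = w ^ (n.choose 2) * (y * u ^ n) * x * y ^ n := by group
      _ = w ^ (n.choose 2) * (w ^ n * u ^ n * y) * x * y ^ n := by rw [hL2 n]
      _ = w ^ (n.choose 2) * w ^ n * u ^ n * (y * x) * y ^ n := by group
      _ = w ^ (n.choose 2) * w ^ n * u ^ n * (u * x * y) * y ^ n := by rw [hR1]
      _ = w ^ ((n + 1).choose 2) * u ^ (n + 1) * x * y ^ (n + 1) := by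
          rw [hc, pow_add, pow_succ, pow_succ]
          group

/-- Hall's collection formula in class three. With `u = [y, x]`, `v = [u, x]`, `w = [y, u]`, and
`v`, `w` commuting with `x` and `y`:
`(x * y) ^ n = v ^ ((n + 1) choose 3) * w ^ (n choose 3) * x ^ n * u ^ (n choose 2) * y ^ n`. -/
theorem collect_mul_pow {G : Type*} [Group G] (x y : G)
    (hvx : ⁅⁅y, x⁆, x⁆ * x = x * ⁅⁅y, x⁆, x⁆) (hvy : ⁅⁅y, x⁆, x⁆ * y = y * ⁅⁅y, x⁆, x⁆)
    (hwx : ⁅y, ⁅y, x⁆⁆ * x = x * ⁅y, ⁅y, x⁆⁆) (hwy : ⁅y, ⁅y, x⁆⁆ * y = y * ⁅y, ⁅y, x⁆⁆) (n : ℕ) :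
    (x * y) ^ n = ⁅⁅y, x⁆, x⁆ ^ ((n + 1).choose 3) * ⁅y, ⁅y, x⁆⁆ ^ (n.choose 3) * x ^ n *
      ⁅y, x⁆ ^ (n.choose 2) * y ^ n := by
  have hL3 := collect_pow_mul x y hwx hwy
  obtain ⟨u, hu⟩ : ∃ u : G, u = ⁅y, x⁆ := ⟨_, rfl⟩
  obtain ⟨v, hv⟩ : ∃ v : G, v = ⁅u, x⁆ := ⟨_, rfl⟩
  obtain ⟨w, hw⟩ : ∃ w : G, w = ⁅y, u⁆ := ⟨_, rfl⟩
  rw [← hu, ← hv, ← hw]
  rw [← hu, ← hv] at hvx hvy
  rw [← hu, ← hw] at hwx hwy
  simp only [← hu, ← hw] at hL3
  have hwxC : Commute w x := hwx
  have hwyC : Commute w y := hwy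
  have hvxC : Commute v x := hvx
  have hvyC : Commute v y := hvy
  have hwuC : Commute w u := by
    rw [hu, commutatorElement_def]
    exact ((hwyC.mul_right hwxC).mul_right hwyC.inv_right).mul_right hwxC.inv_right
  have hvuC : Commute v u := by
    rw [hu, commutatorElement_def]
    exact ((hvyC.mul_right hvxC).mul_right hvyC.inv_right).mul_right hvxC.inv_right
  have hvwC : Commute v w := by
    rw [hw, commutatorElement_def]
    exact ((hvyC.mul_right hvuC).mul_right hvyC.inv_right).mul_right hvuC.inv_right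
  have hR2 : u * x = v * x * u := by
    rw [hv, commutatorElement_def]
    group
  have hL1 : ∀ a : ℕ, u ^ a * x = v ^ a * x * u ^ a :=
    Cfsg.Agent.S0130.pow_mul_of_central x u v hvuC.eq hR2
  induction n with
  | zero => simp [Nat.choose]
  | succ n ih =>
    obtain ⟨A, hA⟩ : ∃ A : ℕ, A = n.choose 2 := ⟨_, rfl⟩
    obtain ⟨B, hB⟩ : ∃ B : ℕ, B = (n + 1).choose 3 := ⟨_, rfl⟩
    obtain ⟨C, hC⟩ : ∃ C : ℕ, C = n.choose 3 := ⟨_, rfl⟩
    rw [← hA, ← hB, ← hC] at ih
    have hA' : (n + 1).choose 2 = A + n := by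
      rw [hA, Nat.choose_succ_succ' n 1, Nat.choose_one_right, add_comm]
    have hC' : (n + 1).choose 3 = C + A := by
      rw [hA, hC, Nat.choose_succ_succ' n 2, add_comm]
    have hB' : (n + 1 + 1).choose 3 = B + (A + n) := by
      rw [hB, ← hA', Nat.choose_succ_succ' (n + 1) 2, add_comm]
    have e1 : x ^ n * (u ^ A * w ^ A) = w ^ A * x ^ n * u ^ A := by
      have h1 : u ^ A * w ^ A = w ^ A * u ^ A := ((hwuC.pow_pow A A).eq).symm
      have h2 : x ^ n * w ^ A = w ^ A * x ^ n := ((hwxC.pow_pow A n).eq).symm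
      rw [h1, ← mul_assoc, h2]
    have e2 : x ^ n * v ^ (A + n) = v ^ (A + n) * x ^ n := ((hvxC.pow_pow (A + n) n).eq).symm
    have e3 : (w ^ C * w ^ A) * v ^ (A + n) = v ^ (A + n) * (w ^ C * w ^ A) := by
      rw [← pow_add]
      exact ((hvwC.pow_pow (A + n) (C + A)).eq).symm
    rw [hB', hC', hA']
    calc (x * y) ^ (n + 1) = (x * y) ^ n * (x * y) := pow_succ _ _
      _ = v ^ B * w ^ C * x ^ n * u ^ A * y ^ n * (x * y) := by rw [ih]
      _ = v ^ B * w ^ C * x ^ n * u ^ A * (y ^ n * x) * y := by group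
      _ = v ^ B * w ^ C * x ^ n * u ^ A * (w ^ A * u ^ n * x * y ^ n) * y := by
          rw [hL3 n, ← hA]
      _ = v ^ B * w ^ C * (x ^ n * (u ^ A * w ^ A)) * u ^ n * x * y ^ n * y := by group
      _ = v ^ B * w ^ C * (w ^ A * x ^ n * u ^ A) * u ^ n * x * y ^ n * y := by rw [e1]
      _ = v ^ B * (w ^ C * w ^ A) * x ^ n * (u ^ (A + n) * x) * (y ^ n * y) := by
          rw [pow_add u]
          group
      _ = v ^ B * (w ^ C * w ^ A) * x ^ n * (v ^ (A + n) * x * u ^ (A + n)) * (y ^ n * y) := by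
          rw [hL1 (A + n)]
      _ = v ^ B * (w ^ C * w ^ A) * (x ^ n * v ^ (A + n)) * x * u ^ (A + n) * (y ^ n * y) := by
          group
      _ = v ^ B * (w ^ C * w ^ A) * (v ^ (A + n) * x ^ n) * x * u ^ (A + n) * (y ^ n * y) := by
          rw [e2]
      _ = v ^ B * ((w ^ C * w ^ A) * v ^ (A + n)) * (x ^ n * x) * u ^ (A + n) * (y ^ n * y) := by
          group
      _ = v ^ B * (v ^ (A + n) * (w ^ C * w ^ A)) * (x ^ n * x) * u ^ (A + n) * (y ^ n * y) := by
          rw [e3]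
      _ = v ^ (B + (A + n)) * w ^ (C + A) * x ^ (n + 1) * u ^ (A + n) * y ^ (n + 1) := by
          rw [pow_add v, pow_add w, pow_succ x, pow_succ y]
          group

/-- In a group of class at most three, commutators of elements of the derived subgroup are
central. -/
theorem center_of_class_three {R : Type*} [Group R]
    (hcl : ⁅⁅commutator R, (⊤ : Subgroup R)⁆, (⊤ : Subgroup R)⁆ = ⊥) (c : R)
    (hc : c ∈ commutator R) (g : R) : ⁅c, g⁆ ∈ Subgroup.center R := by
  have h1 := Subgroup.commutator_top_right_eq_bot_iff_le_center.mp hcl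
  exact h1 (Subgroup.commutator_mem_commutator hc (Subgroup.mem_top g))

/-- In a group of class at most three and for a prime `p > 3`: if `[y, x]`, `[y, x, x]` and
`[y, [y, x]]` have order dividing `p`, then `(x * y) ^ p = x ^ p * y ^ p`. -/
theorem mul_pow_prime_of_class_three {R : Type*} [Group R] {p : ℕ} (hp : p.Prime) (hp3 : 3 < p)
    (hcl : ⁅⁅commutator R, (⊤ : Subgroup R)⁆, (⊤ : Subgroup R)⁆ = ⊥) (x y : R)
    (hu : ⁅y, x⁆ ^ p = 1) (hv : ⁅⁅y, x⁆, x⁆ ^ p = 1) (hw : ⁅y, ⁅y, x⁆⁆ ^ p = 1) :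
    (x * y) ^ p = x ^ p * y ^ p := by
  have hu_mem : ⁅y, x⁆ ∈ commutator R := by
    rw [commutator_def]
    exact Subgroup.commutator_mem_commutator (Subgroup.mem_top y) (Subgroup.mem_top x)
  have hvc := Subgroup.mem_center_iff.mp (center_of_class_three hcl _ hu_mem x)
  have hwc : ⁅y, ⁅y, x⁆⁆ ∈ Subgroup.center R := by
    rw [← commutatorElement_inv]
    exact Subgroup.inv_mem _ (center_of_class_three hcl _ hu_mem y)
  have hwc' := Subgroup.mem_center_iff.mp hwc
  have h1 := collect_mul_pow x y (hvc x).symm (hvc y).symm (hwc' x).symm (hwc' y).symm p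
  have d2 : p ∣ p.choose 2 := hp.dvd_choose_self (by norm_num) (by omega)
  have d3 : p ∣ p.choose 3 := hp.dvd_choose_self (by norm_num) hp3
  have d4 : p ∣ (p + 1).choose 3 := by
    rw [Nat.choose_succ_succ' p 2]
    exact dvd_add d2 d3
  obtain ⟨c2, hc2⟩ := d2
  obtain ⟨c3, hc3⟩ := d3
  obtain ⟨c4, hc4⟩ := d4
  rw [h1, hc4, hc3, hc2, pow_mul, pow_mul, pow_mul, hu, hv, hw, one_pow, one_pow, one_pow,
    one_mul, one_mul, mul_one]

/-- In a group of class at most three and for a prime `p > 3`, the product of two elements of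
order dividing `p` has order dividing `p`. -/
theorem mul_pow_eq_one_of_class_three {R : Type*} [Group R] {p : ℕ} (hp : p.Prime) (hp3 : 3 < p)
    (hcl : ⁅⁅commutator R, (⊤ : Subgroup R)⁆, (⊤ : Subgroup R)⁆ = ⊥) (x y : R)
    (hx : x ^ p = 1) (hy : y ^ p = 1) : (x * y) ^ p = 1 := by
  have hu_mem : ⁅y, x⁆ ∈ commutator R := by
    rw [commutator_def]
    exact Subgroup.commutator_mem_commutator (Subgroup.mem_top y) (Subgroup.mem_top x)
  have hvc := Subgroup.mem_center_iff.mp (center_of_class_three hcl _ hu_mem x)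
  have hwc : ⁅y, ⁅y, x⁆⁆ ∈ Subgroup.center R := by
    rw [← commutatorElement_inv]
    exact Subgroup.inv_mem _ (center_of_class_three hcl _ hu_mem y)
  have hwc' := Subgroup.mem_center_iff.mp hwc
  have hL3 := collect_pow_mul x y (hwc' x).symm (hwc' y).symm p
  obtain ⟨u, hu⟩ : ∃ u : R, u = ⁅y, x⁆ := ⟨_, rfl⟩
  obtain ⟨v, hv⟩ : ∃ v : R, v = ⁅u, x⁆ := ⟨_, rfl⟩
  obtain ⟨w, hw⟩ : ∃ w : R, w = ⁅y, u⁆ := ⟨_, rfl⟩
  rw [← hu, ← hv] at hvc
  rw [← hu, ← hw] at hwc' hL3
  have hR2 : u * x = v * x * u := by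
    rw [hv, commutatorElement_def]
    group
  have hR3 : y * u = w * u * y := by
    rw [hw, commutatorElement_def]
    group
  have hvp : v ^ p = 1 := by
    have h1 := mul_pow_of_central_left u x v (hvc x).symm hR2 p
    rw [hx, mul_one, mul_one] at h1
    have h2 : 1 * u = v ^ p * u := by rw [one_mul]; exact h1
    exact (mul_right_cancel h2).symm
  have hwp : w ^ p = 1 := by
    have h1 := Cfsg.Agent.S0130.pow_mul_of_central u y w (hwc' y).symm hR3 p
    rw [hy, one_mul, mul_one] at h1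
    have h2 : 1 * u = w ^ p * u := by rw [one_mul]; exact h1
    exact (mul_right_cancel h2).symm
  have hup : u ^ p = 1 := by
    have d2 : p ∣ p.choose 2 := hp.dvd_choose_self (by norm_num) (by omega)
    obtain ⟨c2, hc2⟩ := d2
    rw [hy, one_mul, mul_one, hc2, pow_mul, hwp, one_pow, one_mul] at hL3
    have h2 : 1 * x = u ^ p * x := by rw [one_mul]; exact hL3
    exact (mul_right_cancel h2).symm
  rw [hu] at hup
  rw [hv, hu] at hvp
  rw [hw, hu] at hwp
  rw [mul_pow_prime_of_class_three hp hp3 hcl x y hup hvp hwp, hx, hy, one_mul]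

/-- In a group of class at most three and for a prime `p > 3`, the subgroup generated by the
elements of order dividing `p` has exponent dividing `p`. -/
theorem pow_eq_one_of_mem_closure_class_three {R : Type*} [Group R] {p : ℕ} (hp : p.Prime)
    (hp3 : 3 < p) (hcl : ⁅⁅commutator R, (⊤ : Subgroup R)⁆, (⊤ : Subgroup R)⁆ = ⊥) (g : R)
    (hg : g ∈ Subgroup.closure {x : R | x ^ p = 1}) : g ^ p = 1 := by
  induction hg using Subgroup.closure_induction with
  | mem x hx => exact hx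
  | one => exact one_pow p
  | mul x y _ _ hx hy => exact mul_pow_eq_one_of_class_three hp hp3 hcl x y hx hy
  | inv x _ hx => rw [inv_pow, hx, inv_one]

end Cfsg.Agent.Lib.Helper38
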