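import Mathlib
import Cfsg.Prelude.Def_Transfer
import Cfsg.Agent.S0130
import Cfsg.Agent.Lib.Helper38.Collect
import Cfsg.Agent.Lib.Helper38.PChain
import Cfsg.Agent.Lib.Helper11.R2C1

/-!
# Alperin's lemma on maximal normal elementary abelian subgroups (odd `p`)

If `A` is a normal elementary abelian subgroup of a finite `p`-group `P`, `p` odd, and some
element of order dividing `p` of `C_P(A)` lies outside `A`, then `A` is contained in a normal
elementary abelian subgroup of order `p |A|`.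
-/

set_option autoImplicit false

namespace Cfsg.Agent.Lib.Helper38.Ea4

open scoped commutatorElement

/-- Elementwise form of "elementary abelian". -/
def EA {P : Type*} [Group P] (p : ℕ) (E : Subgroup P) : Prop :=
  (∀ a ∈ E, ∀ b ∈ E, a * b = b * a) ∧ ∀ a ∈ E, a ^ p = 1

theorem ea_iff {P : Type*} [Group P] (p : ℕ) (E : Subgroup P) :
    Cfsg.IsElementaryAbelian p E ↔ EA p E := by
  constructor
  · rintro ⟨h1, h2⟩
    refine ⟨fun a ha b hb => ?_, h2⟩
    have := h1.is_comm.comm ⟨a, ha⟩ ⟨b, hb⟩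
    exact congrArg Subtype.val this
  · rintro ⟨h1, h2⟩
    exact ⟨⟨⟨fun a b => Subtype.ext (h1 a.1 a.2 b.1 b.2)⟩⟩, h2⟩

/-- Two generators of order `p`, all elements of order `p` of the derived subgroup central:
the third term of the upper central series is the second. -/
theorem ucs_three_le_two {D : Type*} [Group D] {p : ℕ} (hpp : p.Prime) (hp2 : p ≠ 2)
    (x y : D) (hgen : Subgroup.closure {x, y} = ⊤) (hx : x ^ p = 1) (hy : y ^ p = 1)
    (hH : ∀ w ∈ commutator D, w ^ p = 1 → w ∈ Subgroup.center D) :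
    Subgroup.upperCentralSeries D 3 ≤ Subgroup.upperCentralSeries D 2 := by
  intro v hv
  have key : ∀ d : D, d ^ p = 1 → ⁅d, v⁆ ∈ Subgroup.center D := by
    intro d hd
    have hu2 : ⁅d, v⁆ ∈ Subgroup.upperCentralSeries D 2 := by
      have h1 : ⁅v, d⁆ ∈ Subgroup.upperCentralSeries D 2 :=
        (Subgroup.mem_upperCentralSeries_succ_iff.mp hv) d
      rw [← commutatorElement_inv]; exact Subgroup.inv_mem _ h1
    have hw : ⁅d, ⁅d, v⁆⁆ ∈ Subgroup.center D := by
      have h1 : ⁅⁅d, v⁆, d⁆ ∈ Subgroup.upperCentralSeries D 1 :=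
        (Subgroup.mem_upperCentralSeries_succ_iff.mp hu2) d
      rw [Subgroup.upperCentralSeries_one] at h1
      rw [← commutatorElement_inv]; exact Subgroup.inv_mem _ h1
    have hwc := Subgroup.mem_center_iff.mp hw
    have hL := Cfsg.Agent.Lib.Helper38.collect_pow_mul v d (hwc v).symm (hwc d).symm p
    have hwp : ⁅d, ⁅d, v⁆⁆ ^ p = 1 := by
      have hR3 : d * ⁅d, v⁆ = ⁅d, ⁅d, v⁆⁆ * ⁅d, v⁆ * d := by
        rw [commutatorElement_def d ⁅d, v⁆]; group
      have h1 := Cfsg.Agent.S0130.pow_mul_of_central ⁅d, v⁆ d ⁅d, ⁅d, v⁆⁆ (hwc d).symm hR3 p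
      rw [hd, one_mul, mul_one] at h1
      have h2 : 1 * ⁅d, v⁆ = ⁅d, ⁅d, v⁆⁆ ^ p * ⁅d, v⁆ := by rw [one_mul]; exact h1
      exact (mul_right_cancel h2).symm
    have hup : ⁅d, v⁆ ^ p = 1 := by
      have d2 : p ∣ p.choose 2 :=
        hpp.dvd_choose_self (by norm_num) (by have := hpp.two_le; omega)
      obtain ⟨c2, hc2⟩ := d2
      rw [hd, one_mul, mul_one, hc2, pow_mul, hwp, one_pow, one_mul] at hL
      have h2 : 1 * v = ⁅d, v⁆ ^ p * v := by rw [one_mul]; exact hL
      exact (mul_right_cancel h2).symm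
    have hmem : ⁅d, v⁆ ∈ commutator D := by
      rw [commutator_def]
      exact Subgroup.commutator_mem_commutator (Subgroup.mem_top d) (Subgroup.mem_top v)
    exact hH _ hmem hup
  have hall : ∀ g : D, ⁅g, v⁆ ∈ Subgroup.center D := by
    intro g
    have hg : g ∈ Subgroup.closure ({x, y} : Set D) := by rw [hgen]; exact Subgroup.mem_top g
    induction hg using Subgroup.closure_induction with
    | mem z hz =>
      rcases hz with rfl | hz
      · exact key _ hx
      · rw [Set.mem_singleton_iff] at hz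
        rw [hz]; exact key _ hy
    | one =>
      have e : ⁅(1 : D), v⁆ = 1 := by rw [commutatorElement_def]; group
      rw [e]; exact Subgroup.one_mem _
    | mul a b _ _ ha hb =>
      have hb' := Subgroup.mem_center_iff.mp hb
      have e : ⁅a * b, v⁆ = (a * ⁅b, v⁆) * a⁻¹ * ⁅a, v⁆ := by
        simp only [commutatorElement_def]; group
      rw [e, hb' a, mul_inv_cancel_right]
      exact Subgroup.mul_mem _ hb ha
    | inv a _ ha =>
      have ha' := Subgroup.mem_center_iff.mp (Subgroup.inv_mem _ ha)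
      have e : ⁅a⁻¹, v⁆ = a⁻¹ * (⁅a, v⁆⁻¹ * a) := by
        simp only [commutatorElement_def]; group
      rw [e, ← ha' a, inv_mul_cancel_left]
      exact Subgroup.inv_mem _ ha
  rw [Subgroup.mem_upperCentralSeries_succ_iff]
  intro g
  rw [Subgroup.upperCentralSeries_one]
  show ⁅v, g⁆ ∈ Subgroup.center D
  rw [← commutatorElement_inv]; exact Subgroup.inv_mem _ (hall g)

/-- Under the hypotheses of `ucs_three_le_two`, a finite `p`-group has class at most two. -/
theorem comm_mem_center {D : Type*} [Group D] [Finite D] {p : ℕ} [Fact p.Prime] (hp2 : p ≠ 2)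
    (hD : IsPGroup p D)
    (x y : D) (hgen : Subgroup.closure {x, y} = ⊤) (hx : x ^ p = 1) (hy : y ^ p = 1)
    (hH : ∀ w ∈ commutator D, w ^ p = 1 → w ∈ Subgroup.center D) (a b : D) :
    ⁅a, b⁆ ∈ Subgroup.center D := by
  have hpp : p.Prime := Fact.out
  have h32 := ucs_three_le_two hpp hp2 x y hgen hx hy hH
  have hnil : Group.IsNilpotent D := hD.isNilpotent
  have hstab : ∀ n : ℕ, Subgroup.upperCentralSeries D (n + 2) ≤ Subgroup.upperCentralSeries D 2 := by
    intro n
    induction n with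
    | zero => exact le_rfl
    | succ n ih =>
      intro v hv
      apply h32
      have hv' : v ∈ Subgroup.upperCentralSeries D (n + 2 + 1) := hv
      rw [Subgroup.mem_upperCentralSeries_succ_iff] at hv' ⊢
      intro g
      exact ih (hv' g)
  obtain ⟨n, hn⟩ := hnil.nilpotent'
  have htop : Subgroup.upperCentralSeries D 2 = ⊤ := by
    apply top_le_iff.mp
    rw [← hn]
    exact le_trans (Subgroup.upperCentralSeries_mono D (by omega : n ≤ n + 2)) (hstab n)
  have ha : a ∈ Subgroup.upperCentralSeries D 2 := by rw [htop]; exact Subgroup.mem_top a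
  have h1 : ⁅a, b⁆ ∈ Subgroup.upperCentralSeries D 1 :=
    (Subgroup.mem_upperCentralSeries_succ_iff.mp ha) b
  rw [Subgroup.upperCentralSeries_one] at h1
  exact h1

/-- In a group of class at most two, `x ^ p = y ^ p = 1` implies `(x⁻¹ y) ^ p = 1` (`p` odd). -/
theorem inv_mul_pow_eq_one {D : Type*} [Group D] {p : ℕ} (hpp : p.Prime) (hp2 : p ≠ 2)
    (hc : ∀ a b : D, ⁅a, b⁆ ∈ Subgroup.center D) (x y : D) (hx : x ^ p = 1) (hy : y ^ p = 1) :
    (x⁻¹ * y) ^ p = 1 := by
  have hdc := Subgroup.mem_center_iff.mp (hc y x⁻¹)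
  have hrel : y * x⁻¹ = ⁅y, x⁻¹⁆ * x⁻¹ * y := by rw [commutatorElement_def]; group
  have h1 := Cfsg.Agent.S0130.pow_mul_of_central x⁻¹ y ⁅y, x⁻¹⁆ (hdc y).symm hrel p
  rw [hy, one_mul, mul_one] at h1
  have h2 : 1 * x⁻¹ = ⁅y, x⁻¹⁆ ^ p * x⁻¹ := by rw [one_mul]; exact h1
  have h3 : ⁅y, x⁻¹⁆ ^ p = 1 := (mul_right_cancel h2).symm
  have hform := Cfsg.Agent.S0130.mul_pow_of_central x⁻¹ y ⁅y, x⁻¹⁆ (hdc x⁻¹).symm (hdc y).symm
    hrel p
  have d2 : p ∣ p.choose 2 :=
    hpp.dvd_choose_self (by norm_num) (by have := hpp.two_le; omega)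
  obtain ⟨c2, hc2⟩ := d2
  rw [hform, hc2, pow_mul, h3, one_pow, one_mul, inv_pow, hx, hy, inv_one, one_mul]

/-- Ambient version: two elements `y`, `y'` of order dividing `p` such that every element of order
dividing `p` of the derived subgroup of `⟨y, y'⟩` is central in `⟨y, y'⟩` satisfy
`(y⁻¹ y') ^ p = 1`. -/
theorem inv_mul_pow_of_pair {P : Type*} [Group P] [Finite P] {p : ℕ} [Fact p.Prime] (hp2 : p ≠ 2)
    (hP : IsPGroup p P) (y y' : P) (hy : y ^ p = 1) (hy' : y' ^ p = 1)
    (hH : ∀ w ∈ ⁅Subgroup.closure ({y, y'} : Set P), Subgroup.closure ({y, y'} : Set P)⁆,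
      w ^ p = 1 → ∀ d ∈ Subgroup.closure ({y, y'} : Set P), d * w = w * d) :
    (y⁻¹ * y') ^ p = 1 := by
  have hpp : p.Prime := Fact.out
  have hyD : y ∈ Subgroup.closure ({y, y'} : Set P) := Subgroup.subset_closure (by simp)
  have hy'D : y' ∈ Subgroup.closure ({y, y'} : Set P) := Subgroup.subset_closure (by simp)
  have hDp : IsPGroup p ↥(Subgroup.closure ({y, y'} : Set P)) := hP.to_subgroup _
  have hgen : Subgroup.closure
      ({(⟨y, hyD⟩ : ↥(Subgroup.closure ({y, y'} : Set P))), ⟨y', hy'D⟩} :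
        Set ↥(Subgroup.closure ({y, y'} : Set P))) = ⊤ := by
    have h1 := Subgroup.closure_closure_coe_preimage (k := ({y, y'} : Set P))
    have h2 : ((↑) : ↥(Subgroup.closure ({y, y'} : Set P)) → P) ⁻¹' ({y, y'} : Set P)
        = {(⟨y, hyD⟩ : ↥(Subgroup.closure ({y, y'} : Set P))), ⟨y', hy'D⟩} := by
      ext z
      simp only [Set.mem_preimage, Set.mem_insert_iff, Set.mem_singleton_iff, Subtype.ext_iff]
    rw [h2] at h1
    exact h1
  have hxD : (⟨y, hyD⟩ : ↥(Subgroup.closure ({y, y'} : Set P))) ^ p = 1 := Subtype.ext (by simpa using hy)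
  have hyD' : (⟨y', hy'D⟩ : ↥(Subgroup.closure ({y, y'} : Set P))) ^ p = 1 :=
    Subtype.ext (by simpa using hy')
  have hHD : ∀ w ∈ commutator ↥(Subgroup.closure ({y, y'} : Set P)), w ^ p = 1 →
      w ∈ Subgroup.center ↥(Subgroup.closure ({y, y'} : Set P)) := by
    intro w hw hwp
    have hle : commutator ↥(Subgroup.closure ({y, y'} : Set P)) ≤
        (⁅Subgroup.closure ({y, y'} : Set P), Subgroup.closure ({y, y'} : Set P)⁆).comap
          (Subgroup.closure ({y, y'} : Set P)).subtype := by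
      rw [commutator_def, Subgroup.commutator_le]
      intro a _ b _
      rw [Subgroup.mem_comap, map_commutatorElement]
      exact Subgroup.commutator_mem_commutator a.2 b.2
    have h1 : (w : P) ∈ ⁅Subgroup.closure ({y, y'} : Set P), Subgroup.closure ({y, y'} : Set P)⁆ :=
      hle hw
    have h2 : (w : P) ^ p = 1 := by
      have := congrArg Subtype.val hwp
      simpa using this
    rw [Subgroup.mem_center_iff]
    intro g
    exact Subtype.ext (hH _ h1 h2 g g.2)
  have hc := comm_mem_center hp2 hDp _ _ hgen hxD hyD' hHD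
  have h3 := inv_mul_pow_eq_one hpp hp2 hc _ _ hxD hyD'
  have := congrArg Subtype.val h3
  simpa using this

/-- The elements of `P` that are central modulo the normal subgroup `N`. -/
def cmod {P : Type*} [Group P] (N : Subgroup P) [hN : N.Normal] : Subgroup P where
  carrier := {c | ∀ g : P, g * c * g⁻¹ * c⁻¹ ∈ N}
  one_mem' := by
    intro g
    have e : g * 1 * g⁻¹ * (1 : P)⁻¹ = 1 := by group
    rw [e]; exact N.one_mem
  mul_mem' := by
    intro a b ha hb g
    have e : g * (a * b) * g⁻¹ * (a * b)⁻¹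
        = (g * a * g⁻¹ * a⁻¹) * (a * (g * b * g⁻¹ * b⁻¹) * a⁻¹) := by group
    rw [e]; exact N.mul_mem (ha g) (hN.conj_mem _ (hb g) a)
  inv_mem' := by
    intro a ha g
    have e : g * a⁻¹ * g⁻¹ * a⁻¹⁻¹ = a⁻¹ * (g * a * g⁻¹ * a⁻¹)⁻¹ * a⁻¹⁻¹ := by group
    rw [e]; exact hN.conj_mem _ (N.inv_mem (ha g)) a⁻¹

theorem mem_cmod {P : Type*} [Group P] (N : Subgroup P) [hN : N.Normal] (c : P) :
    c ∈ cmod N ↔ ∀ g : P, g * c * g⁻¹ * c⁻¹ ∈ N := Iff.rfl

instance cmod_normal {P : Type*} [Group P] (N : Subgroup P) [hN : N.Normal] : (cmod N).Normal := by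
  constructor
  intro c hc h
  rw [mem_cmod] at hc ⊢
  intro g
  have e : g * (h * c * h⁻¹) * g⁻¹ * (h * c * h⁻¹)⁻¹
      = h * ((h⁻¹ * g * h) * c * (h⁻¹ * g * h)⁻¹ * c⁻¹) * h⁻¹ := by group
  rw [e]; exact hN.conj_mem _ (hc _) h

/-- **Alperin's lemma** (one step): if `A` is a normal elementary abelian subgroup of the finite
`p`-group `P`, `p` odd, and `x ∈ C_P(A)` has order dividing `p` and lies outside `A`, then `A` is
contained in a normal elementary abelian subgroup of order `p |A|`. -/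
theorem alperin_step {P : Type*} [Group P] [Finite P] {p : ℕ} [Fact p.Prime] (hp2 : p ≠ 2)
    (hP : IsPGroup p P) (A : Subgroup P) [hAn : A.Normal] (hA : EA p A)
    (x : P) (hxC : x ∈ Subgroup.centralizer (A : Set P)) (hxp : x ^ p = 1) (hxA : x ∉ A) :
    ∃ B : Subgroup P, B.Normal ∧ EA p B ∧ A ≤ B ∧ Nat.card B = Nat.card A * p := by
  classical
  have hpp : p.Prime := Fact.out
  have hnil : Group.IsNilpotent P := hP.isNilpotent
  obtain ⟨C, hCdef⟩ : ∃ C : Subgroup P, C = Subgroup.centralizer (A : Set P) := ⟨_, rfl⟩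
  have hCn : C.Normal := by rw [hCdef]; infer_instance
  have hAC : A ≤ C := by
    intro a ha
    rw [hCdef, Subgroup.mem_centralizer_iff]
    intro b hb
    exact hA.1 b hb a ha
  obtain ⟨N, hN𝒩, hNmax⟩ := Set.exists_max_image
    {N : Subgroup P | N.Normal ∧ A ≤ N ∧ N ≤ C ∧ ∀ n ∈ N, n ^ p = 1 → n ∈ A}
    (fun N => Nat.card N) (Set.toFinite _) ⟨A, hAn, le_rfl, hAC, fun n hn _ => hn⟩
  obtain ⟨hNn, hAN, hNC, hNclean⟩ := hN𝒩
  have := hNn
  have hNneC : N ≠ C := by
    intro h
    exact hxA (hNclean x (by rw [h, hCdef]; exact hxC) hxp)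
  obtain ⟨b, hbC, hbN, hbc⟩ :=
    Cfsg.Agent.Lib.Helper38.exists_central_mod N (Nat.card C) C hCn hNC hNneC le_rfl
  have hN'n : (C ⊓ cmod N).Normal := by have := hCn; infer_instance
  have hNN' : N ≤ C ⊓ cmod N := by
    refine le_inf hNC ?_
    intro n hn
    rw [mem_cmod]
    intro g
    exact N.mul_mem (hNn.conj_mem n hn g) (N.inv_mem hn)
  have hN'not : ¬ ((C ⊓ cmod N).Normal ∧ A ≤ C ⊓ cmod N ∧ C ⊓ cmod N ≤ C ∧
      ∀ n ∈ C ⊓ cmod N, n ^ p = 1 → n ∈ A) := by
    intro hmem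
    have h1 : Nat.card ↥(C ⊓ cmod N) ≤ Nat.card ↥N := hNmax _ hmem
    have h2 : N = C ⊓ cmod N := Subgroup.eq_of_le_of_card_ge hNN' h1
    have h3 : b ∈ C ⊓ cmod N := ⟨hbC, (mem_cmod N b).mpr hbc⟩
    rw [← h2] at h3
    exact hbN h3
  have hex : ∃ y ∈ C ⊓ cmod N, y ^ p = 1 ∧ y ∉ A := by
    by_contra hcon
    push Not at hcon
    exact hN'not ⟨hN'n, le_trans hAN hNN', inf_le_left, hcon⟩
  obtain ⟨y, ⟨hyC, hyc⟩, hyp, hyA⟩ := hex
  have hyc' : ∀ g : P, g * y * g⁻¹ * y⁻¹ ∈ N := (mem_cmod N y).mp hyc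
  have hyC' : ∀ a ∈ A, a * y = y * a := by
    rw [hCdef] at hyC; exact Subgroup.mem_centralizer_iff.mp hyC
  have key : ∀ g : P, y⁻¹ * (g * y * g⁻¹) ∈ A := by
    intro g
    obtain ⟨y', hy'⟩ : ∃ y' : P, y' = g * y * g⁻¹ := ⟨_, rfl⟩
    rw [← hy']
    have hy'p : y' ^ p = 1 := by rw [hy', conj_pow, hyp]; group
    have hy'C : y' ∈ C := by rw [hy']; exact hCn.conj_mem y hyC g
    have huN : y⁻¹ * y' ∈ N := by
      have h1 := hyc' g
      have e : y⁻¹ * y' = y⁻¹ * (g * y * g⁻¹ * y⁻¹) * y⁻¹⁻¹ := by rw [hy']; group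
      rw [e]; exact hNn.conj_mem _ h1 y⁻¹
    have hDC : Subgroup.closure ({y, y'} : Set P) ≤ C := by
      rw [Subgroup.closure_le]
      intro z hz
      rcases hz with hz | hz
      · rw [hz]; exact hyC
      · rw [Set.mem_singleton_iff] at hz; rw [hz]; exact hy'C
    have hDK : Subgroup.closure ({y, y'} : Set P) ≤
        (Subgroup.zpowers (QuotientGroup.mk' N y)).comap (QuotientGroup.mk' N) := by
      rw [Subgroup.closure_le]
      intro z hz
      rcases hz with hz | hz
      · rw [hz]; exact Subgroup.mem_zpowers _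
      · rw [Set.mem_singleton_iff] at hz
        rw [hz]
        show QuotientGroup.mk' N y' ∈ Subgroup.zpowers (QuotientGroup.mk' N y)
        have h1 : QuotientGroup.mk' N y' = QuotientGroup.mk' N y :=
          (QuotientGroup.eq.mpr huN).symm
        rw [h1]; exact Subgroup.mem_zpowers _
    have hcommN : ⁅Subgroup.closure ({y, y'} : Set P), Subgroup.closure ({y, y'} : Set P)⁆ ≤ N := by
      rw [Subgroup.commutator_le]
      intro a ha b hb
      have ha' := hDK ha
      have hb' := hDK hb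
      rw [Subgroup.mem_comap, Subgroup.mem_zpowers_iff] at ha' hb'
      obtain ⟨i, hi⟩ := ha'
      obtain ⟨j, hj⟩ := hb'
      have h1 : QuotientGroup.mk' N ⁅a, b⁆ = 1 := by
        rw [map_commutatorElement, ← hi, ← hj]
        exact commutatorElement_eq_one_iff_commute.mpr (Commute.zpow_zpow_self _ i j)
      exact (QuotientGroup.eq_one_iff _).mp h1
    have hu := inv_mul_pow_of_pair hp2 hP y y' hyp hy'p (by
      intro w hw hwp d hd
      have hwA : w ∈ A := hNclean w (hcommN hw) hwp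
      have hdC : d ∈ C := hDC hd
      rw [hCdef] at hdC
      exact (Subgroup.mem_centralizer_iff.mp hdC w hwA).symm)
    exact hNclean _ huN hu
  refine ⟨A ⊔ Subgroup.zpowers y, ?_, ?_, le_sup_left, ?_⟩
  · constructor
    intro b hb g
    rw [Subgroup.mem_sup_of_normal_left] at hb
    obtain ⟨a, ha, z, hz, rfl⟩ := hb
    rw [Subgroup.mem_zpowers_iff] at hz
    obtain ⟨k, rfl⟩ := hz
    have e : g * (a * y ^ k) * g⁻¹ = (g * a * g⁻¹) * (g * y * g⁻¹) ^ k := by
      rw [conj_zpow]; group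
    rw [e]
    refine Subgroup.mul_mem _ (Subgroup.mem_sup_left (hAn.conj_mem a ha g))
      (Subgroup.zpow_mem _ ?_ k)
    have e2 : g * y * g⁻¹ = y * (y⁻¹ * (g * y * g⁻¹)) := by group
    rw [e2]
    exact Subgroup.mul_mem _ (Subgroup.mem_sup_right (Subgroup.mem_zpowers y))
      (Subgroup.mem_sup_left (key g))
  · have hform : ∀ b ∈ A ⊔ Subgroup.zpowers y, ∃ a ∈ A, ∃ k : ℤ, b = a * y ^ k := by
      intro b hb
      rw [Subgroup.mem_sup_of_normal_left] at hb
      obtain ⟨a, ha, z, hz, rfl⟩ := hb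
      rw [Subgroup.mem_zpowers_iff] at hz
      obtain ⟨k, rfl⟩ := hz
      exact ⟨a, ha, k, rfl⟩
    have hcy : ∀ a ∈ A, ∀ k : ℤ, Commute a (y ^ k) := fun a ha k =>
      (show Commute a y from hyC' a ha).zpow_right k
    constructor
    · intro b hb c hc
      obtain ⟨a, ha, k, rfl⟩ := hform b hb
      obtain ⟨a', ha', l, rfl⟩ := hform c hc
      have h1 : Commute a a' := hA.1 a ha a' ha'
      have h2 : Commute (y ^ k) (y ^ l) := Commute.zpow_zpow_self y k l
      exact ((h1.mul_right (hcy a ha l)).mul_left ((hcy a' ha' k).symm.mul_right h2)).eq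
    · intro b hb
      obtain ⟨a, ha, k, rfl⟩ := hform b hb
      have h3 : (y ^ k) ^ p = 1 := by
        rw [← zpow_natCast, ← zpow_mul, mul_comm, zpow_mul, zpow_natCast, hyp, one_zpow]
      rw [(hcy a ha k).mul_pow, hA.2 a ha, h3, one_mul]
  · exact Cfsg.Agent.Lib.Helper11.R2C.card_sup_zpowers A y hyp hyA
      (by rw [Subgroup.normalizer_eq_top]; exact Subgroup.mem_top y)

end Cfsg.Agent.Lib.Helper38.Ea4
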