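import Mathlib
import Cfsg.Agent.S0130
import Cfsg.Agent.Lib.Helper1.Tools
import Cfsg.Agent.Lib.Helper2.FrattiniP
import Cfsg.Agent.Lib.Helper38.Collect

set_option autoImplicit false

namespace Cfsg.Agent.Lib.Helper38

open Subgroup
open scoped commutatorElement

/-- In a finite nilpotent group, `[D, G]` is strictly smaller than a nontrivial normal subgroup
`D`. -/
theorem card_commutator_top_lt {G : Type*} [Group G] [Finite G] [Group.IsNilpotent G]
    (D : Subgroup G) [D.Normal] (hD : D ≠ ⊥) :
    Nat.card (⁅D, (⊤ : Subgroup G)⁆ : Subgroup G) < Nat.card D := by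
  apply Cfsg.Agent.Lib.Helper1.card_lt_card_of_lt
  refine lt_of_le_of_ne (Subgroup.commutator_le_left D ⊤) ?_
  intro heq
  have h1 : D ≤ ⁅D, (⊤ : Subgroup G)⁆ ⊔ (⊥ : Subgroup G) := by rw [sup_bot_eq, heq]
  exact hD (le_bot_iff.mp (Cfsg.Agent.S0130.le_of_le_commutator_sup D ⊥ h1))

/-- A finite `p`-group whose derived subgroup has index at most `p` is abelian. -/
theorem commutator_eq_bot_of_index_le {M : Type*} [Group M] [Finite M] {p : ℕ} [Fact p.Prime]
    (hM : IsPGroup p M) (h : (commutator M).index ≤ p) : commutator M = ⊥ := by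
  have hp : p.Prime := Fact.out
  have hcyc : IsCyclic (M ⧸ commutator M) := by
    have hQ : IsPGroup p (M ⧸ commutator M) := hM.to_quotient _
    obtain ⟨k, hk⟩ := hQ.exists_card_eq
    have hidx : Nat.card (M ⧸ commutator M) ≤ p := h
    by_cases hk0 : k = 0
    · rw [hk0, pow_zero] at hk
      have : Subsingleton (M ⧸ commutator M) := (Nat.card_eq_one_iff_unique.mp hk).1
      exact isCyclic_of_subsingleton
    · have hk1 : k = 1 := by
        by_contra hne
        have h2 : p ^ 2 ≤ p ^ k := Nat.pow_le_pow_right hp.pos (by omega)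
        rw [← hk] at h2
        have := hp.one_lt
        nlinarith
      rw [hk1, pow_one] at hk
      exact isCyclic_of_prime_card hk
  obtain ⟨q, hq⟩ := IsCyclic.exists_generator (α := M ⧸ commutator M)
  obtain ⟨t, rfl⟩ := QuotientGroup.mk_surjective q
  have hsup : zpowers t ⊔ commutator M = ⊤ := by
    rw [eq_top_iff]
    intro x _
    obtain ⟨i, hi⟩ := hq (x : M ⧸ commutator M)
    have h1 : ((t ^ i : M) : M ⧸ commutator M) = (x : M ⧸ commutator M) := by
      rw [QuotientGroup.mk_zpow]
      exact hi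
    rw [QuotientGroup.eq] at h1
    have e : x = t ^ i * ((t ^ i)⁻¹ * x) := by group
    rw [e]
    exact Subgroup.mul_mem _ (Subgroup.mem_sup_left (zpow_mem (mem_zpowers t) i))
      (Subgroup.mem_sup_right h1)
  have hfr : zpowers t ⊔ frattini M = ⊤ := by
    rw [eq_top_iff, ← hsup]
    exact sup_le_sup_left (Cfsg.Agent.Lib.Helper2.commutator_le_frattini hM) _
  have htop : zpowers t = ⊤ := frattini_nongenerating hfr
  have hc : IsCyclic M := isCyclic_iff_exists_zpowers_eq_top.mpr ⟨t, htop⟩
  exact commutator_eq_bot M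

/-- A `p`-group of order at most `p ^ 4` has nilpotency class at most three. -/
theorem class_three_of_card_le {M : Type*} [Group M] [Finite M] {p : ℕ} [Fact p.Prime]
    (hM : IsPGroup p M) (hcard : Nat.card M ≤ p ^ 4) :
    ⁅⁅commutator M, (⊤ : Subgroup M)⁆, (⊤ : Subgroup M)⁆ = ⊥ := by
  have hp : p.Prime := Fact.out
  have hnil : Group.IsNilpotent M := hM.isNilpotent
  have hpow : ∀ (K : Subgroup M) (j : ℕ), Nat.card K < p ^ (j + 1) → Nat.card K ≤ p ^ j := by
    intro K j hK
    obtain ⟨k, hk⟩ := (hM.to_subgroup K).exists_card_eq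
    rw [hk] at hK ⊢
    have h1 : k < j + 1 := (Nat.pow_lt_pow_iff_right hp.one_lt).mp hK
    exact Nat.pow_le_pow_right hp.pos (by omega)
  have h2 : Nat.card (commutator M) ≤ p ^ 2 := by
    by_contra hcon
    have h3 : p ^ 3 ≤ Nat.card (commutator M) := by
      by_contra h3
      exact hcon (hpow _ 2 (not_le.mp h3))
    have hidx : (commutator M).index ≤ p := by
      have h4 := Subgroup.card_mul_index (commutator M)
      by_contra h5
      have h6 : p ^ 3 * (p + 1) ≤ Nat.card (commutator M) * (commutator M).index :=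
        Nat.mul_le_mul h3 (not_le.mp h5)
      rw [h4] at h6
      have h7 : p ^ 3 * (p + 1) = p ^ 4 + p ^ 3 := by ring
      have h8 : 0 < p ^ 3 := pow_pos hp.pos 3
      omega
    have h9 := commutator_eq_bot_of_index_le hM hidx
    rw [h9, Subgroup.card_bot] at h3
    have h10 : 1 < p ^ 3 := Nat.one_lt_pow (by norm_num) hp.one_lt
    omega
  have h3 : Nat.card (⁅commutator M, (⊤ : Subgroup M)⁆ : Subgroup M) ≤ p := by
    by_cases hb : commutator M = ⊥
    · rw [hb, Subgroup.commutator_bot_left, Subgroup.card_bot]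
      exact hp.one_lt.le
    · have h4 := card_commutator_top_lt (commutator M) hb
      have h5 := hpow ⁅commutator M, (⊤ : Subgroup M)⁆ 1 (lt_of_lt_of_le h4 h2)
      rwa [pow_one] at h5
  by_contra hb
  have hb' : ⁅commutator M, (⊤ : Subgroup M)⁆ ≠ ⊥ := by
    intro h
    rw [h, Subgroup.commutator_bot_left] at hb
    exact hb rfl
  have h5 := card_commutator_top_lt ⁅commutator M, (⊤ : Subgroup M)⁆ hb'
  have h6 := hpow _ 0 (lt_of_lt_of_le h5 (by simpa using h3))
  rw [pow_zero] at h6
  exact hb (Subgroup.card_eq_one.mp (le_antisymm h6 Nat.card_pos))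

/-- For `p > 3`, a subgroup of order at most `p ^ 4` of a `p`-group that is generated by
elements of order dividing `p` has exponent dividing `p`. -/
theorem exp_of_card_le {R : Type*} [Group R] [Finite R] {p : ℕ} [Fact p.Prime] (hp3 : 3 < p)
    (hR : IsPGroup p R) (M : Subgroup R) (hcard : Nat.card M ≤ p ^ 4) (S : Set R)
    (hS : ∀ s ∈ S, s ∈ M ∧ s ^ p = 1) (t : R) (ht : t ∈ Subgroup.closure S) :
    t ∈ M ∧ t ^ p = 1 := by
  have hp : p.Prime := Fact.out
  have hcl := class_three_of_card_le (hR.to_subgroup M) hcard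
  induction ht using Subgroup.closure_induction with
  | mem x hx => exact hS x hx
  | one => exact ⟨M.one_mem, one_pow p⟩
  | mul x y _ _ hx hy =>
    refine ⟨M.mul_mem hx.1 hy.1, ?_⟩
    have h1 := mul_pow_eq_one_of_class_three hp hp3 hcl (⟨x, hx.1⟩ : M) ⟨y, hy.1⟩
      (Subtype.ext (by simpa using hx.2)) (Subtype.ext (by simpa using hy.2))
    have h2 := congrArg Subtype.val h1
    simpa using h2
  | inv x _ hx => exact ⟨M.inv_mem hx.1, by rw [inv_pow, hx.2, inv_one]⟩

end Cfsg.Agent.Lib.Helper38
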