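import Mathlib
import Cfsg.Agent.Lib.Helper38.Ea4A
import Cfsg.Agent.Lib.Helper38.SmallClass

/-!
# Elementary abelian subgroups of order `p ^ 4` against a normal elementary abelian subgroup

Let `A` be a normal elementary abelian subgroup of order at most `p ^ 3` of a finite `p`-group
`P` such that every element of order dividing `p` of `C_P(A)` lies in `A`.  If `E` is elementary
abelian of order `p ^ 4`, then `|A| = p ^ 3`, `E ∩ A = [A, P]` has order `p ^ 2`, and `E` induces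
on `A` every "transvection" with axis `[A, P]`.
-/

set_option autoImplicit false

namespace Cfsg.Agent.Lib.Helper38.Ea4

open scoped commutatorElement

/-- Orbit counting: `|C| ≤ |{[g, x] : g ∈ C}| |C_C(x)|`. -/
theorem card_le_card_range_mul {G : Type*} [Group G] [Finite G] (x : G) (C : Subgroup G) :
    Nat.card C ≤ Nat.card (Set.range (fun g : C => (g : G) * x * (g : G)⁻¹ * x⁻¹)) *
      Nat.card (C ⊓ Subgroup.centralizer {x} : Subgroup G) := by
  classical
  let φ : C → Set.range (fun g : C => (g : G) * x * (g : G)⁻¹ * x⁻¹) :=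
    fun g => ⟨(g : G) * x * (g : G)⁻¹ * x⁻¹, ⟨g, rfl⟩⟩
  let s : Set.range (fun g : C => (g : G) * x * (g : G)⁻¹ * x⁻¹) → C :=
    fun b => Classical.choose b.2
  have hs : ∀ b, φ (s b) = b := fun b => Subtype.ext (Classical.choose_spec b.2)
  have hmem : ∀ g : C, (((s (φ g))⁻¹ * g : C) : G) ∈ C ⊓ Subgroup.centralizer {x} := by
    intro g
    refine ⟨((s (φ g))⁻¹ * g).2, Subgroup.mem_centralizer_singleton_iff.mpr ?_⟩
    have h1 : ((s (φ g) : C) : G) * x * ((s (φ g) : C) : G)⁻¹ * x⁻¹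
        = (g : G) * x * (g : G)⁻¹ * x⁻¹ := congrArg Subtype.val (hs (φ g))
    have h2 := mul_right_cancel h1
    rw [Subgroup.coe_mul, Subgroup.coe_inv]
    calc ((s (φ g) : C) : G)⁻¹ * (g : G) * x
        = ((s (φ g) : C) : G)⁻¹ * ((g : G) * x * (g : G)⁻¹) * g := by group
      _ = ((s (φ g) : C) : G)⁻¹ * (((s (φ g) : C) : G) * x * ((s (φ g) : C) : G)⁻¹) * g := by
          rw [h2]
      _ = x * (((s (φ g) : C) : G)⁻¹ * (g : G)) := by group
  let f : C → Set.range (fun g : C => (g : G) * x * (g : G)⁻¹ * x⁻¹) ×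
      (C ⊓ Subgroup.centralizer {x} : Subgroup G) :=
    fun g => (φ g, ⟨_, hmem g⟩)
  have hf : Function.Injective f := by
    intro g g' h
    have h1 : φ g = φ g' := congrArg Prod.fst h
    have h2 : (((s (φ g))⁻¹ * g : C) : G) = (((s (φ g'))⁻¹ * g' : C) : G) :=
      congrArg (fun z => ((z.2 : (C ⊓ Subgroup.centralizer {x} : Subgroup G)) : G)) h
    rw [h1] at h2
    have h3 : ((s (φ g'))⁻¹ * g : C) = ((s (φ g'))⁻¹ * g' : C) := Subtype.ext h2
    exact mul_left_cancel h3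
  calc Nat.card C ≤ Nat.card (Set.range (fun g : C => (g : G) * x * (g : G)⁻¹ * x⁻¹) ×
        (C ⊓ Subgroup.centralizer {x} : Subgroup G)) :=
        Nat.card_le_card_of_injective f hf
    _ = _ := Nat.card_prod _ _

/-- If `x` is central modulo `B` and `|B| |C_C(x)| ≤ |C|`, then every element of `B` is a
commutator `[g, x]` with `g ∈ C`. -/
theorem surj_of_card {G : Type*} [Group G] [Finite G] (B : Subgroup G) (x : G)
    (hxc : ∀ g : G, g * x * g⁻¹ * x⁻¹ ∈ B) (C : Subgroup G)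
    (hle : Nat.card B * Nat.card (C ⊓ Subgroup.centralizer {x} : Subgroup G) ≤ Nat.card C) :
    ∀ b ∈ B, ∃ g ∈ C, g * x * g⁻¹ * x⁻¹ = b := by
  classical
  intro b hb
  by_contra hcon
  push Not at hcon
  have h1 := card_le_card_range_mul x C
  have hsub : Set.range (fun g : C => (g : G) * x * (g : G)⁻¹ * x⁻¹) ⊆ (B : Set G) \ {b} := by
    rintro _ ⟨g, rfl⟩
    exact ⟨hxc g, fun h => hcon g g.2 h⟩
  have h3 : Nat.card (Set.range (fun g : C => (g : G) * x * (g : G)⁻¹ * x⁻¹))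
      ≤ Nat.card ((B : Set G) \ {b} : Set G) := Nat.card_mono (Set.toFinite _) hsub
  have h4 : Nat.card ((B : Set G) \ {b} : Set G) < Nat.card B := by
    have h5 : ((B : Set G) \ {b}).ncard < (B : Set G).ncard :=
      Set.ncard_sdiff_singleton_lt_of_mem hb
    rw [← Nat.card_coe_set_eq, ← Nat.card_coe_set_eq] at h5
    exact h5
  have hpos : 0 < Nat.card (C ⊓ Subgroup.centralizer {x} : Subgroup G) := Nat.card_pos
  have h6 : (Nat.card (Set.range (fun g : C => (g : G) * x * (g : G)⁻¹ * x⁻¹)) + 1) *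
      Nat.card (C ⊓ Subgroup.centralizer {x} : Subgroup G)
      ≤ Nat.card B * Nat.card (C ⊓ Subgroup.centralizer {x} : Subgroup G) :=
    Nat.mul_le_mul_right _ (by omega)
  rw [add_mul, one_mul] at h6
  omega

/-- The structure of an elementary abelian subgroup of order `p ^ 4` relative to `A`. -/
theorem struct {P : Type*} [Group P] [Finite P] {p : ℕ} [Fact p.Prime]
    (hP : IsPGroup p P) (A : Subgroup P) [hAn : A.Normal] (hA : EA p A)
    (hA3 : Nat.card A ≤ p ^ 3)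
    (hAlp : ∀ x ∈ Subgroup.centralizer (A : Set P), x ^ p = 1 → x ∈ A)
    (E : Subgroup P) (hE : EA p E) (hE4 : Nat.card E = p ^ 4) :
    Nat.card A = p ^ 3 ∧ E ⊓ A = ⁅A, (⊤ : Subgroup P)⁆ ∧
      Nat.card (⁅A, (⊤ : Subgroup P)⁆ : Subgroup P) = p ^ 2 ∧
      ∀ a₀ ∈ A, a₀ ∉ ⁅A, (⊤ : Subgroup P)⁆ → ∀ h ∈ ⁅A, (⊤ : Subgroup P)⁆,
        ∃ e ∈ E, e * a₀ * e⁻¹ * a₀⁻¹ = h := by
  classical
  have hpp : p.Prime := Fact.out
  have hp2 : 2 ≤ p := hpp.two_le
  have hp0 : 0 < p := hpp.pos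
  have hnil : Group.IsNilpotent P := hP.isNilpotent
  have hp34 : p ^ 3 < p ^ 4 := Nat.pow_lt_pow_right hpp.one_lt (by norm_num)
  have hp23 : p ^ 2 < p ^ 3 := Nat.pow_lt_pow_right hpp.one_lt (by norm_num)
  have hp12 : p < p ^ 2 := by
    have := Nat.pow_lt_pow_right hpp.one_lt (show 1 < 2 by norm_num)
    simpa using this
  -- an element of `E` whose centralizer contains `A` lies in `A`
  have hcen : ∀ e ∈ E, A ≤ Subgroup.centralizer ({e} : Set P) → e ∈ A := by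
    intro e he hAe
    apply hAlp e _ (hE.2 e he)
    rw [Subgroup.mem_centralizer_iff]
    intro a ha
    exact Subgroup.mem_centralizer_singleton_iff.mp (hAe ha)
  have hAbot : A ≠ ⊥ := by
    intro h
    have hEA : E ≤ A := by
      intro e he
      apply hcen e he
      rw [h]; exact bot_le
    have := Subgroup.card_le_of_le hEA
    omega
  -- first step of the chain
  obtain ⟨x₁, hx₁A, -, -, hx₁c, -, hB₁card⟩ :=
    Cfsg.Agent.Lib.Helper38.exists_step hP ⊥ A bot_le (Ne.symm hAbot)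
  have hx₁cen : ∀ g : P, g * x₁ = x₁ * g := by
    intro g
    have h1 := Subgroup.mem_bot.mp (hx₁c g)
    have h2 : g * x₁ * g⁻¹ = x₁ := mul_inv_eq_one.mp h1
    exact mul_inv_eq_iff_eq_mul.mp h2
  obtain ⟨B₁, hB₁⟩ : ∃ B₁ : Subgroup P, B₁ = Subgroup.zpowers x₁ := ⟨_, rfl⟩
  rw [bot_sup_eq, ← hB₁, Subgroup.card_bot, one_mul] at hB₁card
  have hB₁A : B₁ ≤ A := by rw [hB₁, Subgroup.zpowers_le]; exact hx₁A
  have hB₁cen : ∀ e : P, B₁ ≤ Subgroup.centralizer ({e} : Set P) := by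
    intro e
    rw [hB₁, Subgroup.zpowers_le, Subgroup.mem_centralizer_singleton_iff]
    exact (hx₁cen e).symm
  have hB₁n : B₁.Normal := by
    constructor
    intro n hn g
    have hn' := hB₁cen g hn
    rw [Subgroup.mem_centralizer_singleton_iff] at hn'
    have e : g * n * g⁻¹ = n := by rw [← hn']; group
    rw [e]; exact hn
  have hB₁ne : B₁ ≠ A := by
    intro h
    have hEA : E ≤ A := by
      intro e he
      apply hcen e he
      rw [← h]; exact hB₁cen e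
    have := Subgroup.card_le_of_le hEA
    rw [← h, hB₁card] at this
    nlinarith
  -- second step
  obtain ⟨x₂, hx₂A, -, -, hx₂c, hB₂n, hB₂card⟩ :=
    Cfsg.Agent.Lib.Helper38.exists_step hP B₁ A hB₁A hB₁ne
  obtain ⟨B₂, hB₂⟩ : ∃ B₂ : Subgroup P, B₂ = B₁ ⊔ Subgroup.zpowers x₂ := ⟨_, rfl⟩
  rw [← hB₂, hB₁card] at hB₂card
  rw [← hB₂] at hB₂n
  have hB₂A : B₂ ≤ A := by
    rw [hB₂]; exact sup_le hB₁A (by rw [Subgroup.zpowers_le]; exact hx₂A)
  have hx₂B₂ : x₂ ∈ B₂ := by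
    rw [hB₂]; exact Subgroup.mem_sup_right (Subgroup.mem_zpowers x₂)
  obtain ⟨E₂, hE₂⟩ : ∃ E₂ : Subgroup P, E₂ = E ⊓ Subgroup.centralizer ({x₂} : Set P) := ⟨_, rfl⟩
  have hE₂E : E₂ ≤ E := by rw [hE₂]; exact inf_le_left
  have hE₂cen : ∀ e ∈ E₂, B₂ ≤ Subgroup.centralizer ({e} : Set P) := by
    intro e he
    rw [hB₂]
    refine sup_le (hB₁cen e) ?_
    rw [Subgroup.zpowers_le, Subgroup.mem_centralizer_singleton_iff]
    rw [hE₂] at he
    exact (Subgroup.mem_centralizer_singleton_iff.mp he.2).symm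
  have hcount1 : Nat.card E ≤ Nat.card B₁ * Nat.card E₂ := by
    rw [hE₂]
    exact Cfsg.Agent.Lib.Helper38.card_le_card_mul_card_centralizer B₁ x₂ hx₂c E
  rw [hE4, hB₁card] at hcount1
  have hB₂ne : B₂ ≠ A := by
    intro h
    have hE₂A : E₂ ≤ A := by
      intro e he
      apply hcen e (hE₂E he)
      rw [← h]; exact hE₂cen e he
    have h1 := Subgroup.card_le_of_le hE₂A
    rw [← h, hB₂card] at h1
    have h2 : p * Nat.card ↥E₂ ≤ p * (p * p) := Nat.mul_le_mul_left p h1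
    have h3 : p ^ 4 = p * (p * p) * p := by ring
    nlinarith
  -- third step
  obtain ⟨x₃, hx₃A, -, -, hx₃c, -, hB₃card⟩ :=
    Cfsg.Agent.Lib.Helper38.exists_step hP B₂ A hB₂A hB₂ne
  rw [hB₂card] at hB₃card
  have hB₃A : B₂ ⊔ Subgroup.zpowers x₃ ≤ A :=
    sup_le hB₂A (by rw [Subgroup.zpowers_le]; exact hx₃A)
  have hA3' : B₂ ⊔ Subgroup.zpowers x₃ = A := by
    apply Subgroup.eq_of_le_of_card_ge hB₃A
    rw [hB₃card]
    have : p ^ 3 = p * p * p := by ring
    omega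
  have hAcard : Nat.card A = p ^ 3 := by
    rw [← hA3', hB₃card]; ring
  obtain ⟨E₃, hE₃⟩ : ∃ E₃ : Subgroup P, E₃ = E₂ ⊓ Subgroup.centralizer ({x₃} : Set P) := ⟨_, rfl⟩
  have hE₃H : E₃ ≤ E ⊓ A := by
    intro e he
    rw [hE₃] at he
    refine ⟨hE₂E he.1, hcen e (hE₂E he.1) ?_⟩
    rw [← hA3']
    refine sup_le (hE₂cen e he.1) ?_
    rw [Subgroup.zpowers_le, Subgroup.mem_centralizer_singleton_iff]
    exact (Subgroup.mem_centralizer_singleton_iff.mp he.2).symm
  have hcount2 : Nat.card E₂ ≤ Nat.card B₂ * Nat.card E₃ := by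
    rw [hE₃]
    exact Cfsg.Agent.Lib.Helper38.card_le_card_mul_card_centralizer B₂ x₃ hx₃c E₂
  rw [hB₂card] at hcount2
  have hE₃le : Nat.card E₃ ≤ Nat.card ↥(E ⊓ A) := Subgroup.card_le_of_le hE₃H
  -- the order of `H = E ⊓ A`
  have hE₂ge : p ^ 3 ≤ Nat.card E₂ := by
    have h1 : p * p ^ 3 ≤ p * Nat.card E₂ := by
      have : p ^ 4 = p * p ^ 3 := by ring
      omega
    exact Nat.le_of_mul_le_mul_left h1 hp0
  obtain ⟨j, hj3, hj⟩ : ∃ j ≤ 3, Nat.card ↥(E ⊓ A) = p ^ j := by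
    have hd : Nat.card ↥(E ⊓ A) ∣ p ^ 3 := by
      rw [← hAcard]; exact Subgroup.card_dvd_of_le inf_le_right
    exact (Nat.dvd_prime_pow hpp).mp hd
  have hHcard : Nat.card ↥(E ⊓ A) = p ^ 2 := by
    have hj0 : j ≠ 0 := by
      intro h0
      rw [h0, pow_zero] at hj
      rw [hj] at hE₃le
      have h1 : Nat.card E₃ = 1 := by
        have := Nat.card_pos (α := E₃)
        omega
      rw [h1, mul_one] at hcount2
      have : p ^ 3 = p * p * p := by ring
      have h2 : p * p < p * p * p := by nlinarith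
      omega
    have hj3' : j ≠ 3 := by
      intro h3
      rw [h3] at hj
      have hHA : E ⊓ A = A := by
        apply Subgroup.eq_of_le_of_card_ge inf_le_right
        rw [hj, hAcard]
      have hAE : A ≤ E := by rw [← hHA]; exact inf_le_left
      have hEA : E ≤ A := by
        intro e he
        apply hcen e he
        intro a ha
        rw [Subgroup.mem_centralizer_singleton_iff]
        exact hE.1 a (hAE ha) e he
      have := Subgroup.card_le_of_le hEA
      omega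
    have hj1 : j ≠ 1 := by
      intro h1
      rw [h1, pow_one] at hj
      rw [hj] at hE₃le
      have hE₂card : Nat.card E₂ = p ^ 3 := by
        have h2 : p * p * Nat.card ↥E₃ ≤ p * p * p := Nat.mul_le_mul_left _ hE₃le
        have : p ^ 3 = p * p * p := by ring
        omega
      have hsurj := surj_of_card B₂ x₃ hx₃c E₂ (by
        rw [hB₂card, ← hE₃, hE₂card]
        have h2 : p * p * Nat.card ↥E₃ ≤ p * p * p := Nat.mul_le_mul_left _ hE₃le
        have : p ^ 3 = p * p * p := by ring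
        omega)
      obtain ⟨e₂, he₂, he₂x⟩ := hsurj x₂ hx₂B₂
      obtain ⟨e, he, heE₂⟩ : ∃ e ∈ E, e ∉ E₂ := by
        by_contra hcon
        push Not at hcon
        have := Subgroup.card_le_of_le (show E ≤ E₂ from hcon)
        omega
      apply heE₂
      rw [hE₂]
      refine ⟨he, Subgroup.mem_centralizer_singleton_iff.mpr ?_⟩
      obtain ⟨be, hbe⟩ : ∃ be : P, be = e * x₃ * e⁻¹ * x₃⁻¹ := ⟨_, rfl⟩
      have hbeB : be ∈ B₂ := by rw [hbe]; exact hx₃c e
      have h1 : e * e₂ = e₂ * e := hE.1 e he e₂ (hE₂E he₂)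
      have h2 : e₂ * be = be * e₂ := by
        have := hE₂cen e₂ he₂ hbeB
        rw [Subgroup.mem_centralizer_singleton_iff] at this
        exact this.symm
      have h3 : be * x₂ = x₂ * be := hA.1 be (hB₂A hbeB) x₂ hx₂A
      have hconj : e * e₂ * e⁻¹ = e₂ := by rw [h1]; group
      have ht : e * x₃ * e⁻¹ = be * x₃ := by rw [hbe]; group
      have step1 : e * x₂ * e⁻¹ = (e * e₂ * e⁻¹) * (e * x₃ * e⁻¹) * (e * e₂ * e⁻¹)⁻¹ *
          (e * x₃ * e⁻¹)⁻¹ := by
        rw [← he₂x]; group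
      rw [hconj, ht] at step1
      have step2 : e₂ * (be * x₃) * e₂⁻¹ * (be * x₃)⁻¹
          = (e₂ * be * e₂⁻¹) * (e₂ * x₃ * e₂⁻¹ * x₃⁻¹) * be⁻¹ := by group
      have h2' : e₂ * be * e₂⁻¹ = be := by rw [h2]; group
      rw [step2, h2', he₂x, h3, mul_inv_cancel_right] at step1
      exact mul_inv_eq_iff_eq_mul.mp step1
    have hj2 : j = 2 := by omega
    rw [hj, hj2]
  -- the commutator `[A, P]`
  have hHsA : ⁅A, (⊤ : Subgroup P)⁆ ≤ A := Subgroup.commutator_le_left A ⊤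
  have hHslt : Nat.card (⁅A, (⊤ : Subgroup P)⁆ : Subgroup P) < Nat.card A :=
    Cfsg.Agent.Lib.Helper38.card_commutator_top_lt A hAbot
  obtain ⟨i, hi3, hi⟩ : ∃ i ≤ 3, Nat.card (⁅A, (⊤ : Subgroup P)⁆ : Subgroup P) = p ^ i := by
    have hd : Nat.card (⁅A, (⊤ : Subgroup P)⁆ : Subgroup P) ∣ p ^ 3 := by
      rw [← hAcard]; exact Subgroup.card_dvd_of_le hHsA
    exact (Nat.dvd_prime_pow hpp).mp hd
  -- general facts about elements of `A` outside `H`
  have G1 : ∀ a ∈ A, a ∉ E ⊓ A → (E ⊓ A) ⊔ Subgroup.zpowers a = A := by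
    intro a ha ha'
    have hle : (E ⊓ A) ⊔ Subgroup.zpowers a ≤ A :=
      sup_le inf_le_right (by rw [Subgroup.zpowers_le]; exact ha)
    have hlt : E ⊓ A < (E ⊓ A) ⊔ Subgroup.zpowers a := by
      refine lt_of_le_of_ne le_sup_left ?_
      intro h
      apply ha'
      rw [h]
      exact Subgroup.mem_sup_right (Subgroup.mem_zpowers a)
    have hc := Cfsg.Agent.Lib.Helper1.card_lt_card_of_lt hlt
    rw [hHcard] at hc
    obtain ⟨k, hk3, hk⟩ : ∃ k ≤ 3, Nat.card ↥((E ⊓ A) ⊔ Subgroup.zpowers a) = p ^ k := by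
      have hd : Nat.card ↥((E ⊓ A) ⊔ Subgroup.zpowers a) ∣ p ^ 3 := by
        rw [← hAcard]; exact Subgroup.card_dvd_of_le hle
      exact (Nat.dvd_prime_pow hpp).mp hd
    rw [hk] at hc
    have hk3' : k = 3 := by
      have h2 : 2 < k := (Nat.pow_lt_pow_iff_right hpp.one_lt).mp hc
      omega
    apply Subgroup.eq_of_le_of_card_ge hle
    rw [hk, hk3', hAcard]
  have G2 : ∀ a ∈ A, a ∉ E ⊓ A → E ⊓ Subgroup.centralizer ({a} : Set P) ≤ E ⊓ A := by
    intro a ha ha' e he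
    refine ⟨he.1, hcen e he.1 ?_⟩
    rw [← G1 a ha ha']
    refine sup_le ?_ ?_
    · intro h hh
      rw [Subgroup.mem_centralizer_singleton_iff]
      exact hE.1 h hh.1 e he.1
    · rw [Subgroup.zpowers_le, Subgroup.mem_centralizer_singleton_iff]
      exact (Subgroup.mem_centralizer_singleton_iff.mp he.2).symm
  have G3 : ∀ a ∈ A, ∀ g : P, g * a * g⁻¹ * a⁻¹ ∈ ⁅A, (⊤ : Subgroup P)⁆ := by
    intro a ha g
    have e : g * a * g⁻¹ * a⁻¹ = (⁅a, g⁆)⁻¹ := by rw [commutatorElement_def]; group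
    rw [e]
    exact Subgroup.inv_mem _ (Subgroup.commutator_mem_commutator ha (Subgroup.mem_top g))
  obtain ⟨a₁, ha₁A, ha₁H⟩ : ∃ a₁ ∈ A, a₁ ∉ E ⊓ A := by
    by_contra hcon
    push Not at hcon
    have := Subgroup.card_le_of_le (show A ≤ E ⊓ A from hcon)
    omega
  have hHscard : Nat.card (⁅A, (⊤ : Subgroup P)⁆ : Subgroup P) = p ^ 2 := by
    have h1 := Cfsg.Agent.Lib.Helper38.card_le_card_mul_card_centralizer
      (⁅A, (⊤ : Subgroup P)⁆) a₁ (G3 a₁ ha₁A) E
    have h2 := Subgroup.card_le_of_le (G2 a₁ ha₁A ha₁H)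
    rw [hHcard] at h2
    rw [hE4, hi] at h1
    have h3 : p ^ i * Nat.card ↥(E ⊓ Subgroup.centralizer ({a₁} : Set P)) ≤ p ^ i * p ^ 2 :=
      Nat.mul_le_mul_left _ h2
    have h4 : p ^ 4 ≤ p ^ (i + 2) := by rw [pow_add]; omega
    have h5 : 4 ≤ i + 2 := (Nat.pow_le_pow_iff_right hpp.one_lt).mp h4
    rw [hi, hAcard] at hHslt
    have h6 : i < 3 := (Nat.pow_lt_pow_iff_right hpp.one_lt).mp hHslt
    have : i = 2 := by omega
    rw [hi, this]
  have G4 : ∀ a ∈ A, a ∉ E ⊓ A → ∀ h ∈ ⁅A, (⊤ : Subgroup P)⁆,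
      ∃ e ∈ E, e * a * e⁻¹ * a⁻¹ = h := by
    intro a ha ha'
    apply surj_of_card (⁅A, (⊤ : Subgroup P)⁆) a (G3 a ha) E
    have h2 := Subgroup.card_le_of_le (G2 a ha ha')
    rw [hHcard] at h2
    rw [hHscard, hE4]
    have h3 : p ^ 2 * Nat.card ↥(E ⊓ Subgroup.centralizer ({a} : Set P)) ≤ p ^ 2 * p ^ 2 :=
      Nat.mul_le_mul_left _ h2
    have : p ^ 4 = p ^ 2 * p ^ 2 := by ring
    omega
  have hHeq : E ⊓ A = ⁅A, (⊤ : Subgroup P)⁆ := by
    by_contra hne
    obtain ⟨s, hs, hsH⟩ : ∃ s ∈ ⁅A, (⊤ : Subgroup P)⁆, s ∉ E ⊓ A := by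
      by_contra hcon
      push Not at hcon
      apply hne
      symm
      apply Subgroup.eq_of_le_of_card_ge hcon
      rw [hHcard, hHscard]
    have hsurj := G4 s (hHsA hs) hsH
    have hHsbot : ⁅A, (⊤ : Subgroup P)⁆ ≠ ⊥ := by
      intro h
      rw [h, Subgroup.card_bot] at hHscard
      nlinarith
    have hle : ⁅A, (⊤ : Subgroup P)⁆ ≤ ⁅⁅A, (⊤ : Subgroup P)⁆, (⊤ : Subgroup P)⁆ := by
      intro h hh
      obtain ⟨e, -, rfl⟩ := hsurj h hh
      have e' : e * s * e⁻¹ * s⁻¹ = (⁅s, e⁆)⁻¹ := by rw [commutatorElement_def]; group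
      rw [e']
      exact Subgroup.inv_mem _ (Subgroup.commutator_mem_commutator hs (Subgroup.mem_top e))
    have h1 := Cfsg.Agent.Lib.Helper38.card_commutator_top_lt (⁅A, (⊤ : Subgroup P)⁆) hHsbot
    have h2 := Subgroup.card_le_of_le hle
    omega
  refine ⟨hAcard, hHeq, hHscard, ?_⟩
  intro a₀ ha₀ ha₀' h hh
  exact G4 a₀ ha₀ (by rw [hHeq]; exact ha₀') h hh

end Cfsg.Agent.Lib.Helper38.Ea4
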