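import Mathlib
import Cfsg.Agent.Lib.Helper38.Ea4B
import Cfsg.Agent.Lib.Helper51.Basic
import Cfsg.Agent.Lib.Helper1.PGroup
import Cfsg.Agent.Lib.Helper1.Tools

/-!
# A normal elementary abelian subgroup of order `p ^ 4` (`p` odd)

If a finite `p`-group, `p` odd, has an elementary abelian subgroup of order `p ^ 4`, then it has
a normal one.  The proof is by induction on the order of the group, through a maximal subgroup
containing the given elementary abelian subgroup.
-/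

set_option autoImplicit false

namespace Cfsg.Agent.Lib.Helper38.Ea4

open scoped commutatorElement

universe u

theorem sup_zpowers_eq {P : Type*} [Group P] [Finite P] {p : ℕ} [Fact p.Prime]
    (A H : Subgroup P) (hHA : H ≤ A) (hAcard : Nat.card A = p ^ 3) (hHcard : Nat.card H = p ^ 2)
    (a : P) (ha : a ∈ A) (ha' : a ∉ H) : H ⊔ Subgroup.zpowers a = A := by
  have hpp : p.Prime := Fact.out
  have hle : H ⊔ Subgroup.zpowers a ≤ A :=
    sup_le hHA (by rw [Subgroup.zpowers_le]; exact ha)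
  have hlt : H < H ⊔ Subgroup.zpowers a := by
    refine lt_of_le_of_ne le_sup_left ?_
    intro h
    apply ha'
    rw [h]
    exact Subgroup.mem_sup_right (Subgroup.mem_zpowers a)
  have hc := Cfsg.Agent.Lib.Helper1.card_lt_card_of_lt hlt
  rw [hHcard] at hc
  obtain ⟨k, hk3, hk⟩ : ∃ k ≤ 3, Nat.card ↥(H ⊔ Subgroup.zpowers a) = p ^ k := by
    have hd : Nat.card ↥(H ⊔ Subgroup.zpowers a) ∣ p ^ 3 := by
      rw [← hAcard]; exact Subgroup.card_dvd_of_le hle
    exact (Nat.dvd_prime_pow hpp).mp hd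
  rw [hk] at hc
  have hk3' : k = 3 := by
    have h2 : 2 < k := (Nat.pow_lt_pow_iff_right hpp.one_lt).mp hc
    omega
  apply Subgroup.eq_of_le_of_card_ge hle
  rw [hk, hk3', hAcard]

/-- Two elementary abelian subgroups of order `p ^ 4` agree modulo `C_P(A)`. -/
theorem exists_mem_centralizer {P : Type*} [Group P] [Finite P] {p : ℕ} [Fact p.Prime]
    (hP : IsPGroup p P) (A : Subgroup P) [hAn : A.Normal] (hA : EA p A)
    (hA3 : Nat.card A ≤ p ^ 3)
    (hAlp : ∀ x ∈ Subgroup.centralizer (A : Set P), x ^ p = 1 → x ∈ A)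
    (E F : Subgroup P) (hE : EA p E) (hE4 : Nat.card E = p ^ 4)
    (hF : EA p F) (hF4 : Nat.card F = p ^ 4) (e : P) (he : e ∈ E) :
    ∃ f ∈ F, f⁻¹ * e ∈ Subgroup.centralizer (A : Set P) := by
  have hpp : p.Prime := Fact.out
  obtain ⟨hAcard, hEA, hHs, -⟩ := struct hP A hA hA3 hAlp E hE hE4
  obtain ⟨-, hFA, -, hsurj⟩ := struct hP A hA hA3 hAlp F hF hF4
  have hHsA : ⁅A, (⊤ : Subgroup P)⁆ ≤ A := Subgroup.commutator_le_left A ⊤
  obtain ⟨a₀, ha₀A, ha₀H⟩ : ∃ a₀ ∈ A, a₀ ∉ ⁅A, (⊤ : Subgroup P)⁆ := by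
    by_contra hcon
    push Not at hcon
    have h1 := Subgroup.card_le_of_le (show A ≤ ⁅A, (⊤ : Subgroup P)⁆ from hcon)
    rw [hAcard, hHs] at h1
    have h2 := Nat.pow_lt_pow_right hpp.one_lt (show 2 < 3 by norm_num)
    omega
  have hh : e * a₀ * e⁻¹ * a₀⁻¹ ∈ ⁅A, (⊤ : Subgroup P)⁆ := by
    have e' : e * a₀ * e⁻¹ * a₀⁻¹ = (⁅a₀, e⁆)⁻¹ := by rw [commutatorElement_def]; group
    rw [e']
    exact Subgroup.inv_mem _ (Subgroup.commutator_mem_commutator ha₀A (Subgroup.mem_top e))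
  obtain ⟨f, hf, hfe⟩ := hsurj a₀ ha₀A ha₀H _ hh
  refine ⟨f, hf, ?_⟩
  have hgen := sup_zpowers_eq A (⁅A, (⊤ : Subgroup P)⁆) hHsA hAcard hHs a₀ ha₀A ha₀H
  have hle : A ≤ Subgroup.centralizer ({f⁻¹ * e} : Set P) := by
    rw [← hgen]
    refine sup_le ?_ ?_
    · intro h hh'
      rw [Subgroup.mem_centralizer_singleton_iff]
      have h1 : h ∈ E := by
        have : h ∈ E ⊓ A := by rw [hEA]; exact hh'
        exact this.1
      have h2 : h ∈ F := by
        have : h ∈ F ⊓ A := by rw [hFA]; exact hh'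
        exact this.1
      have c1 : h * e = e * h := hE.1 h h1 e he
      have c2 : h * f = f * h := hF.1 h h2 f hf
      have c3 : h * f⁻¹ = f⁻¹ * h := by
        have : h * f⁻¹ = f⁻¹ * (f * h) * f⁻¹ := by group
        rw [this, ← c2]; group
      calc h * (f⁻¹ * e) = h * f⁻¹ * e := by group
        _ = f⁻¹ * (h * e) := by rw [c3]; group
        _ = f⁻¹ * e * h := by rw [c1]; group
    · rw [Subgroup.zpowers_le, Subgroup.mem_centralizer_singleton_iff]
      have h1 := mul_right_cancel hfe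
      calc a₀ * (f⁻¹ * e) = f⁻¹ * (f * a₀ * f⁻¹) * e := by group
        _ = f⁻¹ * (e * a₀ * e⁻¹) * e := by rw [h1]
        _ = f⁻¹ * e * a₀ := by group
  rw [Subgroup.mem_centralizer_iff]
  intro a ha
  have h1 := hle ha
  rw [Subgroup.mem_centralizer_singleton_iff] at h1
  exact h1

/-- An elementary abelian subgroup of order `p ^ 4` inside `F A` is `F`. -/
theorem eq_of_le_sup {P : Type*} [Group P] [Finite P] {p : ℕ} [Fact p.Prime]
    (hP : IsPGroup p P) (A : Subgroup P) [hAn : A.Normal] (hA : EA p A)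
    (hA3 : Nat.card A ≤ p ^ 3)
    (hAlp : ∀ x ∈ Subgroup.centralizer (A : Set P), x ^ p = 1 → x ∈ A)
    (F F' : Subgroup P) (hF : EA p F) (hF4 : Nat.card F = p ^ 4)
    (hF' : EA p F') (hF'4 : Nat.card F' = p ^ 4) (hle : F' ≤ F ⊔ A) : F' = F := by
  have hpp : p.Prime := Fact.out
  obtain ⟨hAcard, hFA, hHs, -⟩ := struct hP A hA hA3 hAlp F hF hF4
  have hHsA : ⁅A, (⊤ : Subgroup P)⁆ ≤ A := Subgroup.commutator_le_left A ⊤
  by_contra hne
  obtain ⟨f', hf', hf'F⟩ : ∃ f' ∈ F', f' ∉ F := by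
    by_contra hcon
    push Not at hcon
    exact hne (Subgroup.eq_of_le_of_card_ge hcon (by rw [hF4, hF'4]))
  have hmem := hle hf'
  rw [Subgroup.mem_sup_of_normal_right] at hmem
  obtain ⟨f, hf, a, ha, hfa⟩ := hmem
  have haH : a ∉ ⁅A, (⊤ : Subgroup P)⁆ := by
    intro h
    have h1 : a ∈ F ⊓ A := by rw [hFA]; exact h
    apply hf'F
    rw [← hfa]
    exact F.mul_mem hf h1.1
  have hgen := sup_zpowers_eq A (⁅A, (⊤ : Subgroup P)⁆) hHsA hAcard hHs a ha haH
  have hinf : F ⊓ F' ≤ ⁅A, (⊤ : Subgroup P)⁆ := by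
    intro g hg
    have hgA : g ∈ A := by
      apply hAlp g _ (hF.2 g hg.1)
      have hle' : A ≤ Subgroup.centralizer ({g} : Set P) := by
        rw [← hgen]
        refine sup_le ?_ ?_
        · intro h hh
          have h2 : h ∈ F := by
            have : h ∈ F ⊓ A := by rw [hFA]; exact hh
            exact this.1
          rw [Subgroup.mem_centralizer_singleton_iff]
          exact hF.1 h h2 g hg.1
        · rw [Subgroup.zpowers_le, Subgroup.mem_centralizer_singleton_iff]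
          have c1 : g * f = f * g := hF.1 g hg.1 f hf
          have c2 : g * f' = f' * g := hF'.1 g hg.2 f' hf'
          have ea : a = f⁻¹ * f' := by rw [← hfa]; group
          have c3 : g * f⁻¹ = f⁻¹ * g := by
            have : g * f⁻¹ = f⁻¹ * (f * g) * f⁻¹ := by group
            rw [this, ← c1]; group
          rw [ea]
          calc f⁻¹ * f' * g = f⁻¹ * (f' * g) := by group
            _ = f⁻¹ * g * f' := by rw [← c2]; group
            _ = g * (f⁻¹ * f') := by rw [← c3]; group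
      rw [Subgroup.mem_centralizer_iff]
      intro b hb
      have h1 := hle' hb
      rw [Subgroup.mem_centralizer_singleton_iff] at h1
      exact h1
    have h3 : g ∈ F ⊓ A := ⟨hg.1, hgA⟩
    rw [hFA] at h3
    exact h3
  have h1 := Cfsg.Agent.Lib.Helper51.card_mul_card_le_card_sup_mul_card_inf F F'
  have h2 := Cfsg.Agent.Lib.Helper1.card_sup_mul_card_inf A F
  have h3 : Nat.card ↥(F ⊓ F') ≤ p ^ 2 := by rw [← hHs]; exact Subgroup.card_le_of_le hinf
  have h4 : Nat.card ↥(F ⊔ F') ≤ Nat.card ↥(A ⊔ F) :=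
    Subgroup.card_le_of_le (sup_le le_sup_right (by rw [sup_comm]; exact hle))
  have h5 : Nat.card ↥(A ⊓ F) = p ^ 2 := by rw [inf_comm, hFA, hHs]
  rw [h5, hAcard, hF4] at h2
  rw [hF4, hF'4] at h1
  have h6 : Nat.card ↥(A ⊔ F) = p ^ 5 := by
    have h7 : p ^ 3 * p ^ 4 = p ^ 5 * p ^ 2 := by ring
    rw [h7] at h2
    exact Nat.eq_of_mul_eq_mul_right (pow_pos hpp.pos 2) h2
  rw [h6] at h4
  have h7 : p ^ 4 * p ^ 4 ≤ p ^ 5 * p ^ 2 :=
    le_trans h1 (Nat.mul_le_mul h4 h3)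
  have h8 : p ^ 5 * p ^ 2 < p ^ 4 * p ^ 4 := by
    rw [← pow_add, ← pow_add]
    exact Nat.pow_lt_pow_right hpp.one_lt (by norm_num)
  omega

theorem ea_subgroupOf {P : Type*} [Group P] {p : ℕ} (E M : Subgroup P) (hE : EA p E) :
    EA p (E.subgroupOf M) := by
  refine ⟨fun a ha b hb => ?_, fun a ha => ?_⟩
  · rw [Subgroup.mem_subgroupOf] at ha hb
    exact Subtype.ext (hE.1 _ ha _ hb)
  · rw [Subgroup.mem_subgroupOf] at ha
    apply Subtype.ext
    rw [Subgroup.coe_pow]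
    exact hE.2 _ ha

theorem ea_map {P Q : Type*} [Group P] [Group Q] {p : ℕ} (f : P →* Q) (E : Subgroup P)
    (hE : EA p E) : EA p (E.map f) := by
  refine ⟨?_, ?_⟩
  · rintro _ ⟨a, ha, rfl⟩ _ ⟨b, hb, rfl⟩
    rw [← map_mul, ← map_mul, hE.1 a ha b hb]
  · rintro _ ⟨a, ha, rfl⟩
    rw [← map_pow, hE.2 a ha, map_one]

/-- The induction. -/
theorem main_aux (p : ℕ) [Fact p.Prime] (hp2 : p ≠ 2) :
    ∀ n : ℕ, ∀ (P : Type u) [Group P] [Finite P], Nat.card P = n → IsPGroup p P →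
      ∀ E : Subgroup P, EA p E → Nat.card E = p ^ 4 →
        ∃ A : Subgroup P, A.Normal ∧ EA p A ∧ Nat.card A = p ^ 4 := by
  intro n
  induction n using Nat.strong_induction_on with
  | _ n ih =>
  intro P _ _ hn hP E hE hE4
  classical
  have hpp : p.Prime := Fact.out
  by_contra hno
  push Not at hno
  -- a normal elementary abelian subgroup of order at most `p ^ 3`, of maximal order
  have hbot : (⊥ : Subgroup P) ∈
      {A : Subgroup P | A.Normal ∧ EA p A ∧ Nat.card A ≤ p ^ 3} := by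
    refine ⟨inferInstance, ⟨?_, ?_⟩, ?_⟩
    · intro a ha b hb
      rw [Subgroup.mem_bot] at ha hb
      rw [ha, hb]
    · intro a ha
      rw [Subgroup.mem_bot] at ha
      rw [ha, one_pow]
    · rw [Subgroup.card_bot]; exact Nat.one_le_pow _ _ hpp.pos
  obtain ⟨A, hAS, hmax⟩ := Set.exists_max_image _ (fun A : Subgroup P => Nat.card A)
    (Set.toFinite {A : Subgroup P | A.Normal ∧ EA p A ∧ Nat.card A ≤ p ^ 3}) ⟨⊥, hbot⟩
  have hAn : A.Normal := hAS.1
  have hA : EA p A := hAS.2.1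
  have hA3 : Nat.card A ≤ p ^ 3 := hAS.2.2
  have hAlp : ∀ x ∈ Subgroup.centralizer (A : Set P), x ^ p = 1 → x ∈ A := by
    intro x hxC hxp
    by_contra hxA
    obtain ⟨B, hBn, hB, hAB, hBcard⟩ := alperin_step hp2 hP A hA x hxC hxp hxA
    obtain ⟨k, hk⟩ := (hP.to_subgroup A).exists_card_eq
    have hk3 : k ≤ 3 := by
      rw [hk] at hA3
      exact (Nat.pow_le_pow_iff_right hpp.one_lt).mp hA3
    rw [hk, ← pow_succ] at hBcard
    rcases Nat.lt_or_ge k 3 with h | h
    · have hBS : B ∈ {A : Subgroup P | A.Normal ∧ EA p A ∧ Nat.card A ≤ p ^ 3} := by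
        refine ⟨hBn, hB, ?_⟩
        rw [hBcard]
        exact Nat.pow_le_pow_right hpp.pos h
      have h1 : Nat.card B ≤ Nat.card A := hmax B hBS
      rw [hBcard, hk] at h1
      have h2 := (Nat.pow_le_pow_iff_right hpp.one_lt).mp h1
      omega
    · have hk3' : k = 3 := by omega
      rw [hk3'] at hBcard
      exact hno B hBn hB hBcard
  -- `E` is proper, take a maximal subgroup containing it
  have hEtop : E ≠ ⊤ := by
    intro h
    exact hno E (by rw [h]; infer_instance) hE hE4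
  obtain ⟨M, hM, hEM⟩ := (eq_top_or_exists_le_coatom E).resolve_left hEtop
  have hMn : M.Normal := Cfsg.Agent.Lib.Helper1.coatom_normal_of_pGroup p hP M hM
  have hMlt : Nat.card M < n := by
    rw [← hn]
    have h1 : M < ⊤ := hM.lt_top
    have h2 := Cfsg.Agent.Lib.Helper1.card_lt_card_of_lt h1
    rwa [Subgroup.card_top] at h2
  obtain ⟨FM, hFMn, hFM, hFM4⟩ := ih (Nat.card M) hMlt M rfl (hP.to_subgroup M)
    (E.subgroupOf M) (ea_subgroupOf E M hE)
    (by rw [Cfsg.Agent.Lib.Helper1.card_subgroupOf_of_le hEM, hE4])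
  obtain ⟨F, hFdef⟩ : ∃ F : Subgroup P, F = FM.map M.subtype := ⟨_, rfl⟩
  have hF : EA p F := by rw [hFdef]; exact ea_map _ _ hFM
  have hF4 : Nat.card F = p ^ 4 := by
    rw [hFdef, Subgroup.card_map_of_injective M.subtype_injective, hFM4]
  have hFM' : F ≤ M := by
    rw [hFdef]; rintro _ ⟨a, -, rfl⟩; exact a.2
  have hFconj : ∀ m ∈ M, ∀ f ∈ F, m * f * m⁻¹ ∈ F := by
    intro m hm f hf
    rw [hFdef] at hf ⊢
    obtain ⟨a, ha, rfl⟩ := hf
    exact ⟨⟨m, hm⟩ * a * ⟨m, hm⟩⁻¹, hFMn.conj_mem a ha ⟨m, hm⟩, rfl⟩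
  -- every conjugate of `F` is `F`
  have hkey : ∀ g : P, F.map (MulAut.conj g).toMonoidHom = F := by
    intro g
    obtain ⟨F1, hF1def⟩ : ∃ F1 : Subgroup P, F1 = F.map (MulAut.conj g).toMonoidHom :=
      ⟨_, rfl⟩
    rw [← hF1def]
    have hF1 : EA p F1 := by rw [hF1def]; exact ea_map _ _ hF
    have hF14 : Nat.card F1 = p ^ 4 := by
      rw [hF1def, Subgroup.card_map_of_injective (MulAut.conj g).injective, hF4]
    have hF1M : F1 ≤ M := by
      rw [hF1def]
      rintro _ ⟨a, ha, rfl⟩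
      exact hMn.conj_mem a (hFM' ha) g
    apply eq_of_le_sup hP A hA hA3 hAlp F F1 hF hF4 hF1 hF14
    intro f1 hf1
    obtain ⟨f, hf, hc⟩ := exists_mem_centralizer hP A hA hA3 hAlp F1 F hF1 hF14 hF hF4 f1 hf1
    obtain ⟨c, hcdef⟩ : ∃ c : P, c = f⁻¹ * f1 := ⟨_, rfl⟩
    rw [← hcdef] at hc
    have hcM : c ∈ M := by
      rw [hcdef]; exact M.mul_mem (M.inv_mem (hFM' hf)) (hF1M hf1)
    obtain ⟨z, hzdef⟩ : ∃ z : P, z = c * f * c⁻¹ * f⁻¹ := ⟨_, rfl⟩
    have hzF : z ∈ F := by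
      rw [hzdef]; exact F.mul_mem (hFconj c hcM f hf) (F.inv_mem hf)
    have hCn : (Subgroup.centralizer (A : Set P)).Normal := Subgroup.normal_centralizer
    have hzC : z ∈ Subgroup.centralizer (A : Set P) := by
      have e : z = c * (f * c⁻¹ * f⁻¹) := by rw [hzdef]; group
      rw [e]
      exact Subgroup.mul_mem _ hc (hCn.conj_mem _ (Subgroup.inv_mem _ hc) f)
    have hzA : z ∈ A := hAlp z hzC (hF.2 z hzF)
    have hzf : z * f = f * z := hF.1 z hzF f hf
    have hzc : z * c = c * z := by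
      rw [Subgroup.mem_centralizer_iff] at hc
      exact hc z hzA
    have hrel : c * f = z * f * c := by rw [hzdef]; group
    have hpow := Cfsg.Agent.S0130.mul_pow_of_central f c z hzf hzc hrel p
    have hfc : f * c = f1 := by rw [hcdef]; group
    rw [hfc, hF1.2 f1 hf1, hF.2 f hf, mul_one] at hpow
    have hzp : z ^ (p.choose 2) = 1 := by
      have hdvd : p ∣ p.choose 2 :=
        hpp.dvd_choose_self (by norm_num) (lt_of_le_of_ne hpp.two_le (Ne.symm hp2))
      obtain ⟨t, ht⟩ := hdvd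
      rw [ht, pow_mul, hF.2 z hzF, one_pow]
    rw [hzp, one_mul] at hpow
    have hcA : c ∈ A := hAlp c hc hpow.symm
    rw [← hfc]
    exact Subgroup.mul_mem _ (Subgroup.mem_sup_left hf) (Subgroup.mem_sup_right hcA)
  have hFn : F.Normal := by
    constructor
    intro f hf g
    rw [← hkey g]
    exact ⟨f, hf, rfl⟩
  exact hno F hFn hF hF4

end Cfsg.Agent.Lib.Helper38.Ea4
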